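import Cfsg.Agent.H283.LB.Proj
import Cfsg.Agent.Blocks.Orthogonality
import Cfsg.Agent.Blocks.PrincipalSection
import Cfsg.Agent.S0913

/-!
# S4879: membership in the principal block by degrees (helper283)

`Ψ = ∑ m i * c i` vanishes on the `p`-singular elements (for instance induced from a subgroup of order prime to `p`). Then for
every block `B` the sum of `m i * (c i)(1)` over the `c i ∈ B` is divisible by `|P|`.

* `dvd_sum_block`: this divisibility, `B` any block; `vanish_part`: the `B`-part of `Ψ` vanishes on the `p`-singular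
  elements too (so it is again a legal `Ψ` for `le_blockRank_of_det`);
* `mem_of_sieve`: if no set `s ∋ i` of indices disjoint from the known members `K` of the principal block has
  `|P| ∣ ∑ j ∈ s, m j * deg (c j)`, then `c i` is in the principal block.
-/

set_option autoImplicit false

namespace Cfsg.Agent.H283.LB

open Cfsg Cfsg.Agent.Characters.Core
open scoped ComplexConjugate

universe u

variable {G : Type u} [Group G] [Fintype G] {p : ℕ} [Fact p.Prime] {M : Ideal AlgInt}

/-- the `B`-part of a family -/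
theorem finsum_block {ι : Type*} [Fintype ι] [DecidableEq ι] {B : Set (IrrCharacter G)} (c : ι → IrrCharacter G)
    (hinj : Function.Injective c) (m : ι → ℤ) {Ψ : G → ℂ} (hsum : ∀ g, Ψ g = ∑ i, (m i : ℂ) * (c i : G → ℂ) g)
    [DecidablePred fun i => c i ∈ B] (g : G) :
    blockPart B Ψ g = ∑ i ∈ Finset.univ.filter (fun i => c i ∈ B), (m i : ℂ) * (c i : G → ℂ) g := by
  classical
  have : Finite (IrrCharacter G) := S0909.finite_irr
  have := Fintype.ofFinite (IrrCharacter G)
  have h1 : blockPart B Ψ g = ∑ᶠ χ ∈ B, classInner Ψ (χ : G → ℂ) * (χ : G → ℂ) g := by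
    unfold blockPart
    refine finsum_congr fun χ => ?_
    refine finsum_congr fun _ => ?_
    congr!
  have h2 : ∀ χ : IrrCharacter G, classInner Ψ (χ : G → ℂ) = ∑ i, if c i = χ then (m i : ℂ) else 0 := by
    intro χ
    have e1 : Ψ = ∑ i, (m i : ℂ) • (c i : G → ℂ) := by
      funext g
      rw [hsum, Finset.sum_apply]
      rfl
    rw [e1, classInner_sum_left]
    refine Finset.sum_congr rfl fun i _ => ?_
    rw [classInner_smul_left]
    by_cases h : c i = χ
    · rw [if_pos h, h, classInner_irr_self χ.2, mul_one]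
    · rw [if_neg h, classInner_irr_ne (c i).2 χ.2 (fun h' => h (Subtype.ext h')), mul_zero]
  rw [h1, Blocks.Orthogonality.finsum_mem_eq_sum_filter]
  rw [Finset.sum_congr rfl fun χ _ => by rw [h2 χ, Finset.sum_mul]]
  rw [Finset.sum_comm]
  rw [Finset.sum_filter (s := (Finset.univ : Finset ι))]
  refine Finset.sum_congr rfl fun i _ => ?_
  by_cases hi : c i ∈ B
  · rw [if_pos hi, Finset.sum_eq_single (c i)]
    · rw [if_pos rfl]
    · intro χ _ hne
      rw [if_neg hne.symm, zero_mul]
    · intro hn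
      exact absurd (Finset.mem_filter.2 ⟨Finset.mem_univ _, hi⟩) hn
  · rw [if_neg hi]
    refine Finset.sum_eq_zero fun χ hχ => ?_
    rw [if_neg, zero_mul]
    rintro rfl
    exact hi (Finset.mem_filter.1 hχ).2

/-- The block part of a function vanishing on the `p`-singular elements vanishes there. -/
theorem vanish_part (hM : IsPModular p M) {B : Set (IrrCharacter G)} (hB : IsPBlock M B) {Ψ : G → ℂ}
    (hΨ : ∀ g, p ∣ orderOf g → Ψ g = 0) {g : G} (hg : p ∣ orderOf g) : blockPart B Ψ g = 0 := by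
  obtain ⟨x, hx⟩ := Blocks.Orthogonality.exists_isPPart (Fact.out : p.Prime) g
  refine Blocks.Orthogonality.blockPart_eq_zero hM B (fun k => S0913.result p M hM B hB k) Ψ x ?_ g x hx (IsConj.refl x)
  intro u z hu hz
  apply hΨ
  by_contra hpu
  have h1 : IsPPart p u 1 := Blocks.Orthogonality.isPPart_one_of_not_dvd hpu
  have h2 : z = 1 := by
    by_contra hz1
    obtain ⟨y, h3, h4, ⟨k, h5⟩, h6⟩ := hu
    have h7 : orderOf u = orderOf z * orderOf y := by
      rw [← h3]
      apply h4.orderOf_mul_eq_mul_orderOf_of_coprime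
      rw [h5]
      exact Nat.Coprime.pow_left _ (((Fact.out : p.Prime).coprime_iff_not_dvd).2 h6)
    apply hpu
    rw [h7, h5]
    have h8 : k ≠ 0 := by
      rintro rfl
      rw [pow_zero] at h5
      exact hz1 (orderOf_eq_one_iff.1 h5)
    exact (dvd_pow_self p h8).mul_right _
  have h3 : x = 1 := by
    rw [h2] at hz
    exact isConj_one_left.1 hz
  exact Blocks.Orthogonality.ne_one_of_isPPart hg hx h3

/-- **Divisibility.** -/
theorem dvd_sum_block (hM : IsPModular p M) {B : Set (IrrCharacter G)} (hB : IsPBlock M B)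
    {ι : Type*} [Fintype ι] [DecidableEq ι] (c : ι → IrrCharacter G) (hinj : Function.Injective c) (m : ι → ℤ) {Ψ : G → ℂ}
    (hsum : ∀ g, Ψ g = ∑ i, (m i : ℂ) * (c i : G → ℂ) g) (hΨ : ∀ g, p ∣ orderOf g → Ψ g = 0) (P : Sylow p G)
    [DecidablePred fun i => c i ∈ B] :
    (Nat.card (P : Subgroup G) : ℤ) ∣ ∑ i ∈ Finset.univ.filter (fun i => c i ∈ B), m i * (charDegree (c i : G → ℂ) : ℤ) := by
  classical
  letI : Fintype (P : Subgroup G) := Fintype.ofFinite _
  have h1 : ∀ u : (P : Subgroup G), u ≠ 1 → blockPart B Ψ (u : G) = 0 := by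
    intro u hu
    apply vanish_part hM hB hΨ
    obtain ⟨k, hk⟩ := (IsPGroup.iff_orderOf.1 P.isPGroup') u
    have h2 : k ≠ 0 := by
      rintro rfl
      rw [pow_zero] at hk
      exact hu (orderOf_eq_one_iff.1 hk)
    rw [Subgroup.orderOf_coe, hk]
    exact dvd_pow_self p h2
  choose a ha using fun i => classInner_isNat (isCharacter_comp (P : Subgroup G).subtype (isIrr_isCharacter (c i).2))
    (isCharacter_one (G := (P : Subgroup G)))
  have h3 : (∑ u : (P : Subgroup G), blockPart B Ψ (u : G)) = (Nat.card (P : Subgroup G) : ℂ) *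
      ∑ i ∈ Finset.univ.filter (fun i => c i ∈ B), (m i : ℂ) * (a i : ℂ) := by
    have h9 : ∀ u : (P : Subgroup G), blockPart B Ψ (u : G) =
        ∑ i ∈ Finset.univ.filter (fun i => c i ∈ B), (m i : ℂ) * (c i : G → ℂ) (u : G) :=
      fun u => finsum_block c hinj m hsum (u : G)
    rw [Finset.sum_congr rfl fun u _ => h9 u, Finset.sum_comm, Finset.mul_sum]
    refine Finset.sum_congr rfl fun i _ => ?_
    rw [← ha i, classInner_def, ← Finset.mul_sum]
    have h4 : ∀ u : (P : Subgroup G), ((c i : G → ℂ) ∘ (P : Subgroup G).subtype) u * conj ((1 : ↥(P : Subgroup G) → ℂ) u) =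
        (c i : G → ℂ) (u : G) := by
      intro u
      rw [Pi.one_apply, map_one, mul_one]
      rfl
    rw [Finset.sum_congr rfl fun u _ => h4 u]
    have h5 : (Nat.card (P : Subgroup G) : ℂ) ≠ 0 := by exact_mod_cast Nat.card_pos.ne'
    field_simp
  rw [Finset.sum_eq_single (1 : (P : Subgroup G)) (fun u _ hu => h1 u hu) (fun h => absurd (Finset.mem_univ _) h)] at h3
  rw [Subgroup.coe_one, finsum_block c hinj m hsum] at h3
  refine ⟨∑ i ∈ Finset.univ.filter (fun i => c i ∈ B), m i * (a i : ℤ), ?_⟩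
  have h6 : ((∑ i ∈ Finset.univ.filter (fun i => c i ∈ B), m i * (charDegree (c i : G → ℂ) : ℤ) : ℤ) : ℂ) =
      (((Nat.card (P : Subgroup G) : ℤ) * ∑ i ∈ Finset.univ.filter (fun i => c i ∈ B), m i * (a i : ℤ) : ℤ) : ℂ) := by
    push_cast
    rw [← h3]
    refine Finset.sum_congr rfl fun i _ => ?_
    rw [Blocks.Basic.irr_one_eq_charDegree (c i).2]
  exact_mod_cast h6

/-- **The sieve.** -/
theorem mem_of_sieve (hM : IsPModular p M) {ι : Type*} [Fintype ι] [DecidableEq ι] (c : ι → IrrCharacter G)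
    (hinj : Function.Injective c) (m : ι → ℤ) {Ψ : G → ℂ} (hsum : ∀ g, Ψ g = ∑ i, (m i : ℂ) * (c i : G → ℂ) g)
    (hΨ : ∀ g, p ∣ orderOf g → Ψ g = 0) (P : Sylow p G) (K : Finset ι) (hK : ∀ k ∈ K, c k ∈ principalBlock M G) (i : ι)
    (hi : ∀ s : Finset ι, i ∈ s → Disjoint s K →
      ¬ (Nat.card (P : Subgroup G) : ℤ) ∣ ∑ j ∈ s, m j * (charDegree (c j : G → ℂ) : ℤ)) :
    c i ∈ principalBlock M G := by
  classical
  have hMp : M.IsPrime := Blocks.Local.isPrime_of_isPModular hM
  by_contra hcon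
  have h1 := dvd_sum_block hM (B := blockOf M (c i : G → ℂ)) ⟨c i, rfl⟩ c hinj m hsum hΨ P
  refine hi _ ?_ ?_ h1
  · rw [Finset.mem_filter]
    exact ⟨Finset.mem_univ _, Blocks.Basic.sameBlock_refl _⟩
  · rw [Finset.disjoint_left]
    intro k hk hkK
    have h2 : SameBlock M (c i : G → ℂ) (c k : G → ℂ) := (Finset.mem_filter.1 hk).2
    have h3 : SameBlock M (fun _ : G => (1 : ℂ)) (c k : G → ℂ) := hK k hkK
    exact hcon (Blocks.Basic.sameBlock_trans h3 (Blocks.Basic.sameBlock_symm h2))

end Cfsg.Agent.H283.LB
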